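import Cfsg.Agent.H218.Fus.P

/-!
# S5745, own characteristic, case (B), part 2: all stabilisers of nonzero vectors are `Borel subgroups`

`P` acts on the elementary abelian `p`-group `V` and transitively on `Ω`; the stabiliser of every nonzero vector is the
stabiliser of a point of `Ω`. `V` is partitioned by the subspaces `W c`.

* `PHyp.card` : `|V| = 1 + |Ω| (|W| - 1)`;
* `PHyp.card_W` : if `|Ω| = 1 + p ^ e` then `|W| = p ^ e` and `|V| = |W|²`;
* `PHyp.rank_one` : if `P` is `2`-transitive on `Ω`, `|Ω| = 1 + p ^ e`, `e ≥ 1`, then `p = 2`, `|Ω| = 3`, `|V| = 4`;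
* `PHyp.rank_two` : the counting argument against residues of rank two.
-/

set_option autoImplicit false
set_option linter.unusedSectionVars false
set_option linter.unusedVariables false

namespace Cfsg.Agent.H218.OWN

open MulAction Cfsg.Agent.H218.Fus Cfsg.Agent.H218.CountQ Cfsg.Agent.H218.Count

/-- the hypotheses -/
structure PHyp (p : ℕ) (P V Ω : Type*) [Group P] [AddCommGroup V] [DistribMulAction P V] [MulAction P Ω] : Prop where
  pV : ∀ v : V, p • v = 0
  nv : ∃ v : V, v ≠ 0
  tr : ∀ c d : Ω, ∃ g : P, g • c = d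
  st : ∀ v : V, v ≠ 0 → ∃ c : Ω, ∀ g : P, g • v = v ↔ g • c = c
  mv : ∀ c d : Ω, c ≠ d → ∃ g : P, g • c = c ∧ g • d ≠ d

/-- the cardinality of an elementary abelian `p`-group -/
theorem exists_card_pow {p : ℕ} [Fact p.Prime] (V : Type*) [AddCommGroup V] [Finite V] (pV : ∀ v : V, p • v = 0) :
    ∃ n, Nat.card V = p ^ n := by
  have h1 : IsPGroup p (Multiplicative V) := by
    intro v
    refine ⟨1, ?_⟩
    rw [pow_one]
    exact pV v.toAdd
  obtain ⟨n, hn⟩ := IsPGroup.iff_card.1 h1
  exact ⟨n, hn⟩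

namespace PHyp

variable {p : ℕ} {P V Ω : Type*} [Group P] [AddCommGroup V] [DistribMulAction P V] [MulAction P Ω]

/-- the vectors fixed by the stabiliser of `c` -/
def W (P V : Type*) {Ω : Type*} [Group P] [AddCommGroup V] [DistribMulAction P V] [MulAction P Ω] (c : Ω) :
    AddSubgroup V where
  carrier := {v | ∀ g : P, g • c = c → g • v = v}
  zero_mem' := fun g _ => smul_zero g
  add_mem' := by
    intro a b ha hb g hg
    rw [smul_add, ha g hg, hb g hg]
  neg_mem' := by
    intro a ha g hg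
    rw [smul_neg, ha g hg]

theorem mem_W {c : Ω} {v : V} : v ∈ W P V c ↔ ∀ g : P, g • c = c → g • v = v := Iff.rfl

theorem smul_mem_W {c : Ω} {v : V} (hv : v ∈ W P V c) (g : P) : g • v ∈ W P V (g • c) := by
  intro k hk
  have h1 : (g⁻¹ * k * g) • c = c := by
    rw [mul_smul, mul_smul, hk, inv_smul_smul]
  have h2 := hv _ h1
  rw [mul_smul, mul_smul, inv_smul_eq_iff] at h2
  exact h2

theorem card_W_smul [Finite V] (g : P) (c : Ω) : Nat.card (W P V (g • c)) = Nat.card (W P V c) := by
  refine Nat.card_congr ⟨fun v => ⟨g⁻¹ • (v : V), ?_⟩, fun v => ⟨g • (v : V), smul_mem_W v.2 g⟩, ?_, ?_⟩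
  · have h1 := smul_mem_W v.2 g⁻¹
    rwa [inv_smul_smul] at h1
  · intro v; exact Subtype.ext (smul_inv_smul g (v : V))
  · intro v; exact Subtype.ext (inv_smul_smul g (v : V))

variable (h : PHyp p P V Ω)

include h

theorem card_W_eq [Finite V] (c d : Ω) : Nat.card (W P V c) = Nat.card (W P V d) := by
  obtain ⟨g, rfl⟩ := h.tr c d
  exact (card_W_smul g c).symm

/-- inclusion of stabilisers -/
theorem eq_of_le [Finite P] {c d : Ω} (hcd : ∀ g : P, g • c = c → g • d = d) : c = d := by
  by_contra hne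
  obtain ⟨g, hg, hgd⟩ := h.mv c d hne
  exact hgd (hcd g hg)

theorem st_W {c : Ω} {v : V} (hst : ∀ g : P, g • v = v ↔ g • c = c) : v ∈ W P V c := fun g hg => (hst g).2 hg

/-- a nonzero vector in `W c` has stabiliser that of `c` -/
theorem st_of_mem [Finite P] {c : Ω} {v : V} (hv : v ∈ W P V c) (hv0 : v ≠ 0) (g : P) : g • v = v ↔ g • c = c := by
  obtain ⟨e, he⟩ := h.st v hv0
  have h1 : c = e := h.eq_of_le fun g hg => (he g).1 (hv g hg)
  rw [h1]; exact he g

theorem W_inf [Finite P] {c d : Ω} (hcd : c ≠ d) : W P V c ⊓ W P V d = ⊥ := by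
  rw [eq_bot_iff]
  rintro v ⟨hc, hd⟩
  rw [AddSubgroup.mem_bot]
  by_contra hv
  apply hcd
  refine h.eq_of_le fun g hg => ?_
  exact (h.st_of_mem hd hv g).1 ((h.st_of_mem hc hv g).2 hg)

theorem exists_W [Finite P] {v : V} (hv : v ≠ 0) : ∃ c : Ω, v ∈ W P V c := by
  obtain ⟨c, hc⟩ := h.st v hv
  exact ⟨c, h.st_W hc⟩

/-- **the partition** -/
theorem card [Finite P] [Finite V] [Finite Ω] (c : Ω) :
    Nat.card V = 1 + Nat.card Ω * (Nat.card (W P V c) - 1) := by
  classical
  have := Fintype.ofFinite Ω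
  have e : (Σ c : Ω, {v : V // v ∈ W P V c ∧ v ≠ 0}) ≃ {v : V // v ≠ 0} := by
    refine Equiv.ofBijective (fun x => ⟨x.2.1, x.2.2.2⟩) ⟨?_, ?_⟩
    · rintro ⟨c, v, hv, hv0⟩ ⟨d, w, hw, hw0⟩ hvw
      have h1 : v = w := congrArg Subtype.val hvw
      subst h1
      have h2 : c = d := by
        by_contra hcd
        apply hv0
        have h3 : v ∈ W P V c ⊓ W P V d := ⟨hv, hw⟩
        rwa [h.W_inf hcd, AddSubgroup.mem_bot] at h3
      subst h2
      rfl
    · rintro ⟨v, hv⟩
      obtain ⟨c, hc⟩ := h.exists_W hv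
      exact ⟨⟨c, v, hc, hv⟩, rfl⟩
  have h1 : ∀ d : Ω, Nat.card {v : V // v ∈ W P V d ∧ v ≠ 0} = Nat.card (W P V c) - 1 := by
    intro d
    rw [h.card_W_eq c d]
    have h2 : Nat.card {v : V // v ∈ W P V d ∧ v ≠ 0} = ((W P V d : Set V) \ {0}).ncard := rfl
    have h3 := Set.ncard_sdiff_add_ncard_of_subset (s := ({0} : Set V)) (t := (W P V d : Set V)) (by
      rw [Set.singleton_subset_iff]; exact zero_mem _)
    rw [Set.ncard_singleton] at h3
    have h4 : ((W P V d : Set V)).ncard = Nat.card (W P V d) := rfl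
    rw [h2]
    omega
  have h2 := Nat.card_congr e
  rw [Nat.card_sigma, Finset.sum_congr rfl (fun d _ => h1 d), Finset.sum_const, Finset.card_univ, ← Nat.card_eq_fintype_card,
    smul_eq_mul] at h2
  have h3 : Nat.card {v : V // v ≠ 0} = (({0} : Set V)ᶜ).ncard := rfl
  have h4 := Set.ncard_add_ncard_compl ({0} : Set V)
  rw [Set.ncard_singleton] at h4
  rw [h2, h3]
  exact h4.symm

theorem one_lt_W [Finite P] [Finite V] (c : Ω) : 1 < Nat.card (W P V c) := by
  obtain ⟨v, hv⟩ := h.nv
  obtain ⟨d, hd⟩ := h.exists_W hv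
  rw [h.card_W_eq c d]
  rw [Finite.one_lt_card_iff_nontrivial]
  exact ⟨⟨⟨v, hd⟩, 0, fun h1 => hv (congrArg Subtype.val h1)⟩⟩

omit h in
theorem num {p a b e : ℕ} (hp : p.Prime) (ha : 1 ≤ a) (he : 1 ≤ e) (h1 : p ^ b = 1 + (1 + p ^ e) * (p ^ a - 1)) :
    a = e ∧ b = 2 * a := by
  have hp2 := hp.two_le
  have hpa : 1 ≤ p ^ a := Nat.one_le_pow _ _ hp.pos
  have h2 : p ^ b + p ^ e = p ^ (a + e) + p ^ a := by
    obtain ⟨k, hk⟩ : ∃ k, p ^ a = k + 1 := ⟨p ^ a - 1, by omega⟩
    rw [hk] at h1
    rw [h1, pow_add, hk]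
    simp only [Nat.add_sub_cancel]
    ring
  have hap : 2 * p ^ e ≤ p ^ (a + e) := by
    rw [pow_add]
    exact Nat.mul_le_mul_right _ (hp2.trans (Nat.le_self_pow (by omega) p))
  have hep : 2 * p ^ a ≤ p ^ (a + e) := by
    rw [pow_add, mul_comm (p ^ a)]
    exact Nat.mul_le_mul_right _ (hp2.trans (Nat.le_self_pow (by omega) p))
  have hep' : 0 < p ^ e := pow_pos hp.pos _
  have hae : a = e := by
    rcases lt_trichotomy a e with hlt | heq | hgt
    · exfalso
      have h3 : p ^ a < p ^ b := by omega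
      have h4 : a < b := (Nat.pow_lt_pow_iff_right (by omega)).1 h3
      have h5 : p ^ (a + 1) ∣ p ^ a := by
        rw [← Nat.dvd_add_right (pow_dvd_pow p (show a + 1 ≤ a + e by omega)), ← h2]
        exact dvd_add (pow_dvd_pow p h4) (pow_dvd_pow p hlt)
      have h6 := Nat.le_of_dvd hpa h5
      rw [pow_succ] at h6
      nlinarith
    · exact heq
    · exfalso
      have h3 : p ^ e < p ^ b := by
        have h7 : p ^ e < p ^ a := Nat.pow_lt_pow_right (by omega) hgt
        omega
      have h4 : e < b := (Nat.pow_lt_pow_iff_right (by omega)).1 h3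
      have h5 : p ^ (e + 1) ∣ p ^ e := by
        rw [← Nat.dvd_add_right (pow_dvd_pow p (show e + 1 ≤ b by omega)), h2]
        exact dvd_add (pow_dvd_pow p (show e + 1 ≤ a + e by omega)) (pow_dvd_pow p hgt)
      have h6 := Nat.le_of_dvd hep' h5
      rw [pow_succ] at h6
      nlinarith
  subst hae
  refine ⟨rfl, ?_⟩
  have h3 : p ^ b = p ^ (a + a) := by omega
  have h4 := Nat.pow_right_injective hp2 h3
  omega

/-- `|Ω| = 1 + p ^ e` -/
theorem card_W [Fact p.Prime] [Finite P] [Finite V] [Finite Ω] {e : ℕ} (he : 1 ≤ e) (hΩ : Nat.card Ω = 1 + p ^ e)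
    (c : Ω) : Nat.card (W P V c) = p ^ e ∧ Nat.card V = Nat.card (W P V c) ^ 2 := by
  obtain ⟨b, hb⟩ := exists_card_pow V h.pV
  obtain ⟨a, ha⟩ := exists_card_pow (W P V c) (fun v => Subtype.ext (h.pV v))
  have h1 := h.card c
  have h2 := h.one_lt_W c
  rw [hb, ha, hΩ] at h1
  rw [ha] at h2
  have ha1 : 1 ≤ a := by
    by_contra hcon
    have : a = 0 := by omega
    rw [this, pow_zero] at h2
    omega
  obtain ⟨h3, h4⟩ := num (Fact.out : p.Prime) ha1 he h1
  rw [hb, ha, h4, h3, ← pow_mul, mul_comm]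
  exact ⟨rfl, rfl⟩

/-- `V = W c + W d` -/
theorem W_sup [Fact p.Prime] [Finite P] [Finite V] [Finite Ω] {e : ℕ} (he : 1 ≤ e) (hΩ : Nat.card Ω = 1 + p ^ e)
    {c d : Ω} (hcd : c ≠ d) (v : V) : ∃ a ∈ W P V c, ∃ b ∈ W P V d, a + b = v := by
  have h1 : W P V c ⊔ W P V d = ⊤ := by
    apply AddSubgroup.eq_top_of_card_eq
    apply le_antisymm (AddSubgroup.card_le_card_addGroup _)
    have h2 := add_card_le (B₁ := W P V c) (B₂ := W P V d) (B₃ := W P V c ⊔ W P V d) le_sup_left le_sup_right
    rw [h.W_inf hcd, AddSubgroup.card_bot, one_mul, h.card_W_eq d c, ← pow_two, ← (h.card_W he hΩ c).2] at h2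
    exact h2
  exact AddSubgroup.mem_sup.1 (h1 ▸ AddSubgroup.mem_top v)

/-- two point stabilisers act trivially -/
theorem fix_all [Fact p.Prime] [Finite P] [Finite V] [Finite Ω] {e : ℕ} (he : 1 ≤ e) (hΩ : Nat.card Ω = 1 + p ^ e)
    {c d : Ω} (hcd : c ≠ d) {g : P} (hc : g • c = c) (hd : g • d = d) (v : V) : g • v = v := by
  obtain ⟨a, ha, b, hb, rfl⟩ := h.W_sup he hΩ hcd v
  rw [smul_add, ha g hc, hb g hd]

/-- the kernels on `V` and on `Ω` are the same -/
theorem fix_Ω [Finite P] [Finite V] {g : P} (hg : ∀ v : V, g • v = v) (c : Ω) : g • c = c := by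
  have h1 := h.one_lt_W c
  rw [Finite.one_lt_card_iff_nontrivial] at h1
  obtain ⟨⟨v, hv⟩, hv0⟩ := exists_ne (0 : W P V c)
  exact (h.st_of_mem hv (fun h1 => hv0 (Subtype.ext h1)) g).1 (hg v)

/-! ### The panel -/

/-- sharply 2-transitive, faithful version -/
theorem rank_one_faithful [Fact p.Prime] [Finite P] [Finite V] [Finite Ω] {e : ℕ} (he : 1 ≤ e)
    (hΩ : Nat.card Ω = 1 + p ^ e) (hf : ∀ g : P, (∀ v : V, g • v = v) → g = 1)
    (h2 : ∀ c d d' : Ω, d ≠ c → d' ≠ c → ∃ g : P, g • c = c ∧ g • d = d') : p = 2 ∧ e = 1 := by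
  classical
  have := Fintype.ofFinite Ω
  have hp : p.Prime := Fact.out
  set q := p ^ e with hq
  have hq1 : 1 < q := Nat.one_lt_pow (by omega) hp.one_lt
  have h1 : ∀ g : P, ∀ c d : Ω, c ≠ d → g • c = c → g • d = d → g = 1 := fun g c d hcd hc hd =>
    hf g (h.fix_all he hΩ hcd hc hd)
  -- the orders
  have hstab : ∀ c : Ω, Nat.card (stabilizer P c) = q := by
    intro c
    have hΩ1 : 1 < Nat.card Ω := by omega
    rw [Finite.one_lt_card_iff_nontrivial] at hΩ1
    obtain ⟨d, hd⟩ := exists_ne c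
    have e1 : stabilizer P c ≃ {x : Ω // x ≠ c} := by
      refine Equiv.ofBijective (fun g => ⟨(g : P) • d, ?_⟩) ⟨?_, ?_⟩
      · intro h3
        apply hd
        have h4 : (g : P) • c = c := mem_stabilizer_iff.1 g.2
        exact smul_left_cancel (g : P) (h3.trans h4.symm)
      · intro g g' hg
        have h3 : (g : P) • d = (g' : P) • d := congrArg Subtype.val hg
        have h4 : (g' : P)⁻¹ * g = 1 := h1 _ c d hd.symm (by
          rw [mul_smul, mem_stabilizer_iff.1 g.2, inv_smul_eq_iff, mem_stabilizer_iff.1 g'.2]) (by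
          rw [mul_smul, h3, inv_smul_smul])
        exact Subtype.ext (inv_mul_eq_one.1 h4).symm
      · rintro ⟨x, hx⟩
        obtain ⟨g, hg, hgd⟩ := h2 c d x hd hx
        exact ⟨⟨g, hg⟩, Subtype.ext hgd⟩
    rw [Nat.card_congr e1]
    have h3 : Nat.card {x : Ω // x ≠ c} = (({c} : Set Ω)ᶜ).ncard := rfl
    have h4 := Set.ncard_add_ncard_compl ({c} : Set Ω)
    rw [Set.ncard_singleton] at h4
    omega
  have hΩ0 : Nonempty Ω := by
    rw [← Finite.card_pos_iff]; omega
  have hP : Nat.card P = (q + 1) * q := by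
    obtain ⟨c⟩ := hΩ0
    have h3 := Nat.card_congr (orbitProdStabilizerEquivGroup P c)
    have h4 : Nat.card (orbit P c) = Nat.card Ω := by
      have : orbit P c = Set.univ := by
        rw [Set.eq_univ_iff_forall]
        intro d
        exact h.tr c d
      rw [this]
      exact Nat.card_congr (Equiv.Set.univ Ω)
    rw [← h3, Nat.card_prod, h4, hΩ, hstab, add_comm]
  -- the fixed point free elements
  set F : Set P := {g | ∀ c : Ω, g • c ≠ c} with hF
  have hFcard : F.ncard = q := by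
    have e2 : (Unit ⊕ (Σ c : Ω, {g : P // g • c = c ∧ g ≠ 1})) ⊕ F ≃ P := by
      refine Equiv.ofBijective (Sum.elim (Sum.elim (fun _ => 1) (fun x => x.2.1)) (fun x => x.1)) ⟨?_, ?_⟩
      · rintro ((_ | ⟨c, g, hg, hg1⟩) | ⟨g, hg⟩) ((_ | ⟨d, k, hk, hk1⟩) | ⟨k, hk⟩) hgk
        · rfl
        · exact absurd hgk.symm hk1
        · obtain ⟨c⟩ := hΩ0
          have h3 : (1 : P) = k := hgk
          exact absurd (by rw [← h3, one_smul]) (hk c)
        · exact absurd hgk hg1
        · have h3 : g = k := hgk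
          subst h3
          have h4 : c = d := by
            by_contra hcd
            exact hg1 (h1 g c d hcd hg hk)
          subst h4
          rfl
        · have h3 : g = k := hgk
          subst h3
          exact absurd hg (hk c)
        · obtain ⟨c⟩ := hΩ0
          have h3 : g = 1 := hgk
          exact absurd (by rw [h3, one_smul]) (hg c)
        · have h3 : g = k := hgk
          subst h3
          exact absurd hk (hg d)
        · have h3 : g = k := hgk
          subst h3
          rfl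
      · intro g
        by_cases h3 : g = 1
        · exact ⟨Sum.inl (Sum.inl ()), h3.symm⟩
        · by_cases h4 : ∃ c : Ω, g • c = c
          · obtain ⟨c, hc⟩ := h4
            exact ⟨Sum.inl (Sum.inr ⟨c, g, hc, h3⟩), rfl⟩
          · push Not at h4
            exact ⟨Sum.inr ⟨g, h4⟩, rfl⟩
    have h3 : ∀ c : Ω, Nat.card {g : P // g • c = c ∧ g ≠ 1} = q - 1 := by
      intro c
      have h4 : Nat.card {g : P // g • c = c ∧ g ≠ 1} = ((stabilizer P c : Set P) \ {1}).ncard := rfl
      have h5 := Set.ncard_sdiff_add_ncard_of_subset (s := ({1} : Set P)) (t := (stabilizer P c : Set P)) (by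
        rw [Set.singleton_subset_iff]; exact one_mem _)
      rw [Set.ncard_singleton] at h5
      have h6 : ((stabilizer P c : Set P)).ncard = Nat.card (stabilizer P c) := rfl
      have h7 := hstab c
      omega
    have h4 := Nat.card_congr e2
    rw [Nat.card_sum, Nat.card_sum, Nat.card_sigma, Finset.sum_congr rfl (fun d _ => h3 d), Finset.sum_const,
      Finset.card_univ, ← Nat.card_eq_fintype_card, smul_eq_mul, hP, hΩ] at h4
    have h5 : Nat.card F = F.ncard := rfl
    rw [h5, Nat.card_unique] at h4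
    obtain ⟨k, hk⟩ : ∃ k, q = k + 1 := ⟨q - 1, by omega⟩
    rw [hk] at h4 ⊢
    simp only [Nat.add_sub_cancel] at h4
    nlinarith
  have hFn1 : ∀ g ∈ F, g ≠ 1 := by
    intro g hg h3
    obtain ⟨c⟩ := hΩ0
    exact hg c (by rw [h3, one_smul])
  have hFconj : ∀ g ∈ F, ∀ k : P, k * g * k⁻¹ ∈ F := by
    intro g hg k c hc
    apply hg (k⁻¹ • c)
    rw [mul_smul, mul_smul] at hc
    rw [eq_inv_smul_iff]
    exact hc
  -- centralisers
  have hcent : ∀ z ∈ F, (∀ g : P, g * z = z * g ↔ g = 1 ∨ g ∈ F) ∧ ∀ g ∈ F, ∃ k : P, k * z * k⁻¹ = g := by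
    intro z hz
    have hsub : ∀ g : P, g * z = z * g → g = 1 ∨ g ∈ F := by
      intro g hg
      by_cases h3 : g ∈ F
      · exact Or.inr h3
      · left
        have h4 : ∃ c : Ω, g • c = c := by
          by_contra hcon
          push Not at hcon
          exact h3 hcon
        obtain ⟨c, hc⟩ := h4
        refine h1 g c (z • c) (hz c).symm hc ?_
        rw [← mul_smul, hg, mul_smul, hc]
    have h3 : Nat.card (orbit (ConjAct P) z) * Nat.card (stabilizer (ConjAct P) z) = Nat.card P := by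
      have h4 := Nat.card_congr (orbitProdStabilizerEquivGroup (ConjAct P) z)
      rw [Nat.card_prod] at h4
      exact h4
    have horb : orbit (ConjAct P) z ⊆ F := by
      rintro _ ⟨g, rfl⟩
      exact hFconj z hz (ConjAct.ofConjAct g)
    have h4 : Nat.card (orbit (ConjAct P) z) ≤ q := by
      rw [← hFcard]
      exact Set.ncard_le_ncard horb (Set.toFinite _)
    have h5 : Nat.card (stabilizer (ConjAct P) z) = Nat.card (Subgroup.centralizer ({z} : Set P)) := by
      rw [ConjAct.stabilizer_eq_centralizer]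
      exact Nat.card_congr (ConjAct.toConjAct.toEquiv.subtypeEquiv fun _ => Iff.rfl).symm
    rw [h5, hP] at h3
    have hle : (q + 1) ≤ Nat.card (Subgroup.centralizer ({z} : Set P)) := by
      by_contra hcon
      push Not at hcon
      have h6 : Nat.card (orbit (ConjAct P) z) * Nat.card (Subgroup.centralizer ({z} : Set P)) ≤ q * q :=
        Nat.mul_le_mul h4 (by omega)
      rw [h3] at h6
      nlinarith
    have hEq : ((Subgroup.centralizer ({z} : Set P)) : Set P) = insert 1 F := by
      apply Set.eq_of_subset_of_ncard_le _ _ (Set.toFinite _)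
      · intro g hg
        have h3 : z * g = g * z := Subgroup.mem_centralizer_iff.1 hg z rfl
        rcases hsub g h3.symm with h4 | h4
        · exact Or.inl h4
        · exact Or.inr h4
      · have h3 : (1 : P) ∉ F := fun h3 => hFn1 1 h3 rfl
        rw [Set.ncard_insert_of_notMem h3, hFcard]
        exact hle
    constructor
    · intro g
      constructor
      · exact hsub g
      · intro hg
        have h3 : g ∈ ((Subgroup.centralizer ({z} : Set P)) : Set P) := by
          rw [hEq]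
          exact hg
        have h4 : z * g = g * z := Subgroup.mem_centralizer_iff.1 h3 z rfl
        exact h4.symm
    · have h6 : Nat.card (Subgroup.centralizer ({z} : Set P)) = q + 1 := by
        have h7 : Nat.card (Subgroup.centralizer ({z} : Set P)) =
          ((Subgroup.centralizer ({z} : Set P)) : Set P).ncard := rfl
        rw [h7, hEq, Set.ncard_insert_of_notMem (fun h3 => hFn1 1 h3 rfl), hFcard]
      rw [h6, mul_comm] at h3
      have h7 : Nat.card (orbit (ConjAct P) z) = q := Nat.eq_of_mul_eq_mul_left (by omega) h3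
      have h8 : orbit (ConjAct P) z = F := by
        apply Set.eq_of_subset_of_ncard_le horb _ (Set.toFinite _)
        rw [hFcard]
        exact h7.ge
      intro g hg
      rw [← h8] at hg
      obtain ⟨k, hk⟩ := hg
      exact ⟨ConjAct.ofConjAct k, hk⟩
  obtain ⟨z0, hz0⟩ : ∃ z0, z0 ∈ F := by
    have h3 : F.Nonempty := by
      rw [← Set.ncard_pos (Set.toFinite _), hFcard]; omega
    exact h3
  have hcomm : ∀ g ∈ F, ∀ k ∈ F, g * k = k * g := fun g hg k hk => ((hcent k hk).1 g).2 (Or.inr hg)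
  have hmul : ∀ g ∈ F, ∀ k ∈ F, g * k = 1 ∨ g * k ∈ F := by
    intro g hg k hk
    refine ((hcent z0 hz0).1 _).1 ?_
    rw [mul_assoc, hcomm k hk z0 hz0, ← mul_assoc, hcomm g hg z0 hz0, mul_assoc]
  have hpow : ∀ g ∈ F, ∀ n : ℕ, g ^ n = 1 ∨ g ^ n ∈ F := by
    intro g hg n
    induction n with
    | zero => left; exact pow_zero g
    | succ n ih =>
      rw [pow_succ]
      rcases ih with h3 | h3
      · rw [h3, one_mul]; exact Or.inr hg
      · exact hmul _ h3 _ hg
  have hvF : ∀ g ∈ F, ∀ v : V, g • v = v → v = 0 := by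
    intro g hg v hv
    by_contra hv0
    obtain ⟨c, hc⟩ := h.st v hv0
    exact hg c ((hc g).1 hv)
  -- the order of the elements of `F`
  obtain ⟨r, hr, hrd⟩ := Nat.exists_prime_and_dvd (n := orderOf z0) (fun h3 => hFn1 z0 hz0 (orderOf_eq_one_iff.1 h3))
  obtain ⟨m, hm⟩ := hrd
  have hm0 : 0 < m := by
    rcases Nat.eq_zero_or_pos m with h3 | h3
    · rw [h3, mul_zero] at hm
      exact absurd hm (orderOf_pos z0).ne'
    · exact h3
  set e1 := z0 ^ m with he1
  have he1o : orderOf e1 = r := by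
    rw [he1, orderOf_pow, hm, Nat.gcd_eq_right (Dvd.intro_left r rfl), Nat.mul_div_cancel _ hm0]
  have he1F : e1 ∈ F := by
    rcases hpow z0 hz0 m with h3 | h3
    · exfalso
      rw [← he1] at h3
      rw [h3, orderOf_one] at he1o
      exact hr.one_lt.ne he1o
    · exact h3
  have hord : ∀ g ∈ F, orderOf g = r := by
    intro g hg
    obtain ⟨k, rfl⟩ := (hcent e1 he1F).2 g hg
    rw [← he1o]
    exact orderOf_injective (MulAut.conj k).toMonoidHom (MulAut.conj k).injective e1
  have hrp : r ≠ p := by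
    intro h3
    have h4 : r ∣ q + 1 := by
      rw [← he1o]
      have h5 : Nat.card (Subgroup.centralizer ({z0} : Set P)) = q + 1 := by
        have h7 : Nat.card (Subgroup.centralizer ({z0} : Set P)) =
          ((Subgroup.centralizer ({z0} : Set P)) : Set P).ncard := rfl
        have hEq : ((Subgroup.centralizer ({z0} : Set P)) : Set P) = insert 1 F := by
          ext g
          have h8 := (hcent z0 hz0).1 g
          rw [SetLike.mem_coe, Subgroup.mem_centralizer_iff, Set.mem_insert_iff, ← h8]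
          simp only [Set.mem_singleton_iff, forall_eq]
          exact eq_comm
        rw [h7, hEq, Set.ncard_insert_of_notMem (fun h3 => hFn1 1 h3 rfl), hFcard]
      rw [← h5]
      have h6 : e1 ∈ Subgroup.centralizer ({z0} : Set P) := by
        rw [Subgroup.mem_centralizer_iff]
        intro x hx
        rw [Set.mem_singleton_iff.1 hx]
        exact hcomm z0 hz0 e1 he1F
      have h7 := orderOf_dvd_natCard (⟨e1, h6⟩ : Subgroup.centralizer ({z0} : Set P))
      rwa [Subgroup.orderOf_mk] at h7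
    rw [h3] at h4
    have h5 : p ∣ q := dvd_pow_self p (by omega)
    have h6 := (Nat.dvd_add_right h5).1 h4
    exact hp.one_lt.ne' (Nat.dvd_one.1 h6)
  -- norms
  have hN : ∀ g ∈ F, ∀ v : V, ∑ i ∈ Finset.range r, g ^ i • v = 0 := by
    intro g hg v
    apply hvF g hg
    rw [Finset.smul_sum]
    have h3 : ∀ i, g • g ^ i • v = g ^ (i + 1) • v := by
      intro i
      rw [← mul_smul, ← pow_succ']
    rw [Finset.sum_congr rfl (fun i _ => h3 i)]
    have h4 := Finset.sum_range_succ (fun i => g ^ i • v) r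
    have h5 := Finset.sum_range_succ' (fun i => g ^ i • v) r
    have h6 : g ^ r = 1 := by rw [← hord g hg]; exact pow_orderOf_eq_one g
    rw [h4, h6, pow_zero] at h5
    exact (add_right_cancel h5).symm
  have hgen : ∀ g ∈ F, g ∈ Subgroup.zpowers e1 := by
    intro e2 he2
    by_contra hcon
    obtain ⟨v, hv⟩ := h.nv
    apply hv
    have hj : ∀ j, e1 * e2 ^ j ∈ F := by
      intro j
      rcases hpow e2 he2 j with h3 | h3
      · rw [h3, mul_one]; exact he1F
      · rcases hmul e1 he1F _ h3 with h4 | h4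
        · exfalso
          -- `e2 ^ j` generates `zpowers e2`
          have h5 : e2 ^ j ∈ Subgroup.zpowers e1 := by
            have : e2 ^ j = e1⁻¹ := eq_inv_of_mul_eq_one_right h4
            rw [this]
            exact inv_mem (Subgroup.mem_zpowers e1)
          have h6 : orderOf (e2 ^ j) = orderOf e2 := by rw [hord _ h3, hord _ he2]
          have h7 : Subgroup.zpowers (e2 ^ j) = Subgroup.zpowers e2 := by
            apply Subgroup.eq_of_le_of_card_ge
            · rw [Subgroup.zpowers_le]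
              exact pow_mem (Subgroup.mem_zpowers e2) j
            · rw [Nat.card_zpowers, Nat.card_zpowers, h6]
          apply hcon
          have h8 : e2 ∈ Subgroup.zpowers (e2 ^ j) := by rw [h7]; exact Subgroup.mem_zpowers e2
          exact (Subgroup.zpowers_le.2 h5) h8
        · exact h4
    have h3 : ∑ j ∈ Finset.range r, ∑ i ∈ Finset.range r, (e1 * e2 ^ j) ^ i • v = 0 := by
      apply Finset.sum_eq_zero
      intro j _
      exact hN _ (hj j) v
    have h4 : ∀ i j : ℕ, (e1 * e2 ^ j) ^ i • v = e1 ^ i • (e2 ^ i) ^ j • v := by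
      intro i j
      have h5 : Commute e1 (e2 ^ j) := (show Commute e1 e2 from hcomm e1 he1F e2 he2).pow_right j
      rw [h5.mul_pow, mul_smul, ← pow_mul e2 j i, ← pow_mul e2 i j, mul_comm i j]
    rw [Finset.sum_comm] at h3
    have h5 : ∀ i ∈ Finset.range r, ∑ j ∈ Finset.range r, (e1 * e2 ^ j) ^ i • v = if i = 0 then r • v else 0 := by
      intro i hi
      rw [Finset.sum_congr rfl (fun j _ => h4 i j), ← Finset.smul_sum]
      by_cases hi0 : i = 0
      · rw [if_pos hi0, hi0]
        simp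
      · rw [if_neg hi0]
        have h6 : e2 ^ i ∈ F := by
          rcases hpow e2 he2 i with h7 | h7
          · exfalso
            have h8 := orderOf_dvd_of_pow_eq_one h7
            rw [hord e2 he2] at h8
            have h9 := Nat.le_of_dvd (Nat.pos_of_ne_zero hi0) h8
            have h10 := Finset.mem_range.1 hi
            omega
          · exact h7
        rw [hN _ h6 v, smul_zero]
    rw [Finset.sum_congr rfl h5, Finset.sum_ite_eq' (Finset.range r) 0 (fun _ => r • v),
      if_pos (Finset.mem_range.2 hr.pos)] at h3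
    have h6 : Nat.Coprime r p := (Nat.coprime_primes hr hp).2 hrp
    have h7 : addOrderOf v ∣ 1 := by
      rw [← h6.gcd_eq_one]
      exact Nat.dvd_gcd (addOrderOf_dvd_of_nsmul_eq_zero h3) (addOrderOf_dvd_of_nsmul_eq_zero (h.pV v))
    exact AddMonoid.addOrderOf_eq_one_iff.1 (Nat.dvd_one.1 h7)
  -- `r = q + 1`
  have hrq : r = q + 1 := by
    have h3 : (insert 1 F : Set P) ⊆ (Subgroup.zpowers e1 : Set P) := by
      intro g hg
      rcases hg with rfl | hg
      · exact one_mem _
      · exact hgen g hg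
    have h4 := Set.ncard_le_ncard h3 (Set.toFinite _)
    rw [Set.ncard_insert_of_notMem (fun h3 => hFn1 1 h3 rfl), hFcard] at h4
    have h5 : ((Subgroup.zpowers e1 : Subgroup P) : Set P).ncard = r := by
      have h6 : ((Subgroup.zpowers e1 : Subgroup P) : Set P).ncard = Nat.card (Subgroup.zpowers e1) := rfl
      rw [h6, Nat.card_zpowers, he1o]
    rw [h5] at h4
    have h7 : (Subgroup.zpowers e1 : Set P) ⊆ insert 1 F := by
      rintro _ ⟨n, rfl⟩
      have h8 : e1 ^ n ∈ Submonoid.powers e1 := by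
        rw [mem_powers_iff_mem_zpowers]
        exact ⟨n, rfl⟩
      obtain ⟨k, hk⟩ := h8
      have h9 : e1 ^ n = e1 ^ k := hk.symm
      show e1 ^ n ∈ insert 1 F
      rw [h9]
      exact hpow e1 he1F k
    have h8 := Set.ncard_le_ncard h7 (Set.toFinite _)
    rw [Set.ncard_insert_of_notMem (fun h3 => hFn1 1 h3 rfl), hFcard, h5] at h8
    omega
  -- elements of `stabilizer P c` have order dividing `p`
  obtain ⟨c⟩ := hΩ0
  have hpe : ∀ s ∈ stabilizer P c, s ^ p = 1 := by
    intro s hs
    have hsW : ∀ w ∈ W P V c, s • w = w := fun w hw => hw s hs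
    have hsp : IsPGroup p (Subgroup.zpowers s) := by
      have h3 : IsPGroup p (stabilizer P c) := IsPGroup.iff_card.2 ⟨e, by rw [hstab c]⟩
      exact h3.to_le (Subgroup.zpowers_le.2 hs)
    have hinv : ∀ (l : Subgroup.zpowers s) (m : V), m ∈ W P V c → l • m ∈ W P V c := by
      rintro ⟨_, n, rfl⟩ m hm
      have h3 : s ^ n ∈ stabilizer P c := zpow_mem hs n
      have h4 : (⟨s ^ n, n, rfl⟩ : Subgroup.zpowers s) • m = m := hm (s ^ n) h3
      rw [h4]
      exact hm
    let := quotAct (L := Subgroup.zpowers s) (W P V c) hinv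
    have hmk : ∀ (l : Subgroup.zpowers s) (m : V), l • (QuotientAddGroup.mk m : V ⧸ W P V c) =
      QuotientAddGroup.mk (l • m) := fun l m => rfl
    obtain ⟨x, hx0, hx⟩ := exists_fixed (Q := V ⧸ W P V c) hsp (by
      intro x
      obtain ⟨m, rfl⟩ := QuotientAddGroup.mk_surjective x
      rw [← QuotientAddGroup.mk_nsmul, h.pV]; rfl) (by
      by_contra hcon
      push Not at hcon
      have h3 : W P V c = ⊤ := by
        rw [eq_top_iff]
        intro m _
        exact (QuotientAddGroup.eq_zero_iff m).1 (hcon _)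
      have h4 := (h.card_W he hΩ c).2
      have h5 := h.one_lt_W c
      rw [h3, AddSubgroup.card_top] at h4 h5
      nlinarith)
    obtain ⟨v, rfl⟩ := QuotientAddGroup.mk_surjective x
    have h3 : s • v - v ∈ W P V c := by
      have h4 := hx ⟨s, Subgroup.mem_zpowers s⟩
      rw [hmk, QuotientAddGroup.eq] at h4
      have h5 : -(s • v) + v ∈ W P V c := h4
      have h6 := neg_mem h5
      have e' : -(-(s • v) + v) = s • v - v := by abel
      rwa [e'] at h6
    have hvW : v ∉ W P V c := fun h4 => hx0 ((QuotientAddGroup.eq_zero_iff v).2 h4)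
    have h4 : ∀ n : ℕ, s ^ n • v = v + n • (s • v - v) := by
      intro n
      induction n with
      | zero => simp
      | succ n ih =>
        rw [pow_succ', mul_smul, ih, smul_add, smul_comm s n, hsW _ h3, succ_nsmul]
        abel
    have h5 : s ^ p • v = v := by rw [h4, h.pV, add_zero]
    have hv0 : v ≠ 0 := fun h6 => hvW (by rw [h6]; exact zero_mem _)
    obtain ⟨d, hd⟩ := h.exists_W hv0
    refine h1 (s ^ p) c d ?_ (mem_stabilizer_iff.1 ((stabilizer P c).pow_mem hs p)) ?_
    · rintro rfl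
      exact hvW hd
    · exact (h.st_of_mem hd hv0 _).1 h5
  -- `q ≤ p`
  have hact : ∀ s : P, ∃ a : ℕ, s * e1 * s⁻¹ = e1 ^ a := by
    intro s
    have h3 := hgen _ (hFconj e1 he1F s)
    rw [← mem_powers_iff_mem_zpowers] at h3
    obtain ⟨a, ha⟩ := h3
    exact ⟨a, ha.symm⟩
  choose a ha using hact
  have hak : ∀ (s : P) (k : ℕ), s ^ k * e1 * (s ^ k)⁻¹ = e1 ^ (a s) ^ k := by
    intro s k
    induction k with
    | zero => simp
    | succ k ih =>
      have h3 : s ^ (k + 1) * e1 * (s ^ (k + 1))⁻¹ = s * (s ^ k * e1 * (s ^ k)⁻¹) * s⁻¹ := by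
        rw [pow_succ']; group
      rw [h3, ih, ← conj_pow, ha, ← pow_mul, pow_succ, mul_comm]
  have : Fact r.Prime := ⟨hr⟩
  have hqp : q ≤ p := by
    have h3 : ∀ s ∈ stabilizer P c, (a s : ZMod r) ^ p = 1 := by
      intro s hs
      have h4 := hak s p
      rw [hpe s hs, one_mul, inv_one, mul_one] at h4
      have h5 : e1 ^ 1 = e1 ^ (a s) ^ p := by rw [pow_one]; exact h4
      rw [pow_eq_pow_iff_modEq, he1o] at h5
      have h6 := (ZMod.natCast_eq_natCast_iff _ _ _).2 h5
      push_cast at h6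
      exact h6.symm
    have hinj : Function.Injective (fun s : stabilizer P c =>
        (⟨(a s : ZMod r), by
          rw [Multiset.mem_toFinset, Polynomial.mem_nthRoots hp.pos]
          exact h3 s s.2⟩ : (Polynomial.nthRoots p (1 : ZMod r)).toFinset)) := by
      intro s t hst
      have h4 : (a s : ZMod r) = (a t : ZMod r) := congrArg Subtype.val hst
      have h5 := (ZMod.natCast_eq_natCast_iff _ _ _).1 h4
      rw [← he1o, ← pow_eq_pow_iff_modEq, ← ha, ← ha] at h5
      have h6 : ((t : P)⁻¹ * s) * e1 = e1 * ((t : P)⁻¹ * s) := by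
        have h7 : (t : P)⁻¹ * ((s : P) * e1 * (s : P)⁻¹) * s = (t : P)⁻¹ * ((t : P) * e1 * (t : P)⁻¹) * s := by
          rw [h5]
        have e1' : (t : P)⁻¹ * ((s : P) * e1 * (s : P)⁻¹) * s = ((t : P)⁻¹ * s) * e1 := by group
        have e2' : (t : P)⁻¹ * ((t : P) * e1 * (t : P)⁻¹) * s = e1 * ((t : P)⁻¹ * s) := by group
        rw [← e1', h7, e2']
      have h7 : ((t : P)⁻¹ * s) • c = c := by
        rw [mul_smul, mem_stabilizer_iff.1 s.2, inv_smul_eq_iff, mem_stabilizer_iff.1 t.2]
      rcases ((hcent e1 he1F).1 _).1 h6 with h8 | h8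
      · exact Subtype.ext (inv_mul_eq_one.1 h8).symm
      · exact absurd h7 (h8 c)
    have h4 := Nat.card_le_card_of_injective _ hinj
    rw [hstab c] at h4
    have h5 : Nat.card ((Polynomial.nthRoots p (1 : ZMod r)).toFinset) =
        (Polynomial.nthRoots p (1 : ZMod r)).toFinset.card := by
      rw [Nat.card_eq_fintype_card, Fintype.card_coe]
    rw [h5] at h4
    exact h4.trans ((Multiset.toFinset_card_le _).trans (Polynomial.card_nthRoots _ _))
  have he2 : e = 1 := by
    by_contra hcon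
    have h3 : p ^ 2 ≤ p ^ e := Nat.pow_le_pow_right hp.pos (by omega)
    have h4 : p ^ 2 ≤ p := h3.trans hqp
    nlinarith [hp.two_le]
  refine ⟨?_, he2⟩
  rw [he2, pow_one] at hq
  rw [hq] at hrq
  by_contra hp2
  have h3 : Odd p := hp.odd_of_ne_two hp2
  have h4 : Odd r := hr.odd_of_ne_two (by have := hp.two_le; omega)
  rw [hrq] at h4
  rcases h3 with ⟨x, hx⟩
  rcases h4 with ⟨y, hy⟩
  omega

/-- **the panel**: `P` 2-transitive on `Ω`, `|Ω| = 1 + p ^ e`, `e ≥ 1`: `p = 2`, `|Ω| = 3`, `|V| = 4`. -/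
theorem rank_one [Fact p.Prime] [Finite P] [Finite V] [Finite Ω] {e : ℕ} (he : 1 ≤ e)
    (hΩ : Nat.card Ω = 1 + p ^ e)
    (h2 : ∀ c d d' : Ω, d ≠ c → d' ≠ c → ∃ g : P, g • c = c ∧ g • d = d') :
    p = 2 ∧ Nat.card Ω = 3 ∧ Nat.card V = 4 := by
  have hp : p.Prime := Fact.out
  obtain ⟨c0⟩ : Nonempty Ω := by
    rw [← Finite.card_pos_iff]; omega
  -- the image of `P` in `Aut V`
  let f : P →* Equiv.Perm V := MulAction.toPermHom P V
  let P' := f.range
  let actV : DistribMulAction P' V := {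
    smul := fun x v => x.1 v
    one_smul := fun v => rfl
    mul_smul := fun x y v => rfl
    smul_zero := by
      rintro ⟨_, g, rfl⟩
      exact smul_zero g
    smul_add := by
      rintro ⟨_, g, rfl⟩ v w
      exact smul_add g v w }
  have hfv : ∀ (g : P) (v : V), (⟨f g, g, rfl⟩ : P') • v = g • v := fun g v => rfl
  -- the action on `Ω`
  have hker : ∀ g g' : P, f g = f g' → ∀ c : Ω, g • c = g' • c := by
    intro g g' hg c
    have h3 : (g'⁻¹ * g) • c = c := by
      apply h.fix_Ω
      intro v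
      have h4 : g • v = g' • v := Equiv.congr_fun hg v
      rw [mul_smul, h4, inv_smul_smul]
    rw [mul_smul, inv_smul_eq_iff] at h3
    exact h3
  let act : MulAction P' Ω := {
    smul := fun x c => x.2.choose • c
    one_smul := by
      intro c
      have h3 : f (1 : P').2.choose = f 1 := by
        rw [(1 : P').2.choose_spec, map_one]; rfl
      show (1 : P').2.choose • c = c
      rw [hker _ _ h3 c, one_smul]
    mul_smul := by
      intro x y c
      have h3 : f (x * y).2.choose = f (x.2.choose * y.2.choose) := by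
        rw [(x * y).2.choose_spec, map_mul, x.2.choose_spec, y.2.choose_spec]; rfl
      show (x * y).2.choose • c = x.2.choose • y.2.choose • c
      rw [hker _ _ h3 c, mul_smul] }
  have hfc : ∀ (g : P) (c : Ω), (⟨f g, g, rfl⟩ : P') • c = g • c := by
    intro g c
    exact hker _ _ (⟨f g, g, rfl⟩ : P').2.choose_spec c
  have h' : PHyp p P' V Ω := {
    pV := h.pV
    nv := h.nv
    tr := by
      intro c d
      obtain ⟨g, hg⟩ := h.tr c d
      exact ⟨⟨f g, g, rfl⟩, by rw [hfc, hg]⟩
    st := by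
      intro v hv
      obtain ⟨c, hc⟩ := h.st v hv
      refine ⟨c, ?_⟩
      rintro ⟨_, g, rfl⟩
      rw [hfc, hfv]
      exact hc g
    mv := by
      intro c d hcd
      obtain ⟨g, hg, hgd⟩ := h.mv c d hcd
      exact ⟨⟨f g, g, rfl⟩, by rw [hfc, hg], by rw [hfc]; exact hgd⟩ }
  obtain ⟨h3, h4⟩ := h'.rank_one_faithful he hΩ (by
    rintro ⟨_, g, rfl⟩ hg
    apply Subtype.ext
    ext v
    exact hg v) (by
    intro c d d' hd hd'
    obtain ⟨g, hg, hgd⟩ := h2 c d d' hd hd'
    exact ⟨⟨f g, g, rfl⟩, by rw [hfc, hg], by rw [hfc, hgd]⟩)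
  refine ⟨h3, ?_, ?_⟩
  · rw [hΩ, h3, h4]
    norm_num
  · obtain ⟨h5, h6⟩ := h.card_W he hΩ c0
    rw [h6, h5, h3, h4]
    norm_num

/-! ### Fixed points of subgroups, residues of rank two -/

/-- the vectors fixed by `Q` -/
def fixV (P V : Type*) [Group P] [AddCommGroup V] [DistribMulAction P V] (Q : Set P) : AddSubgroup V where
  carrier := {v | ∀ g ∈ Q, g • v = v}
  zero_mem' := fun g _ => smul_zero g
  add_mem' := by
    intro a b ha hb g hg
    rw [smul_add, ha g hg, hb g hg]
  neg_mem' := by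
    intro a ha g hg
    rw [smul_neg, ha g hg]

theorem card_fix [Finite P] [Finite V] [Finite Ω] (c : Ω) (Q : Set P) :
    Nat.card (fixV P V Q) = 1 + Nat.card {c : Ω // ∀ g ∈ Q, g • c = c} * (Nat.card (W P V c) - 1) := by
  classical
  have := Fintype.ofFinite Ω
  have e : (Σ c : {c : Ω // ∀ g ∈ Q, g • c = c}, {v : V // v ∈ W P V c.1 ∧ v ≠ 0}) ≃
      {v : V // v ∈ fixV P V Q ∧ v ≠ 0} := by
    refine Equiv.ofBijective (fun x => ⟨x.2.1, fun g hg => (h.st_of_mem x.2.2.1 x.2.2.2 g).2 (x.1.2 g hg),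
      x.2.2.2⟩) ⟨?_, ?_⟩
    · rintro ⟨⟨c, hc'⟩, v, hv, hv0⟩ ⟨⟨d, hd'⟩, w, hw, hw0⟩ hvw
      have h1 : v = w := congrArg Subtype.val hvw
      subst h1
      have h2 : c = d := by
        by_contra hcd
        apply hv0
        have h3 : v ∈ W P V c ⊓ W P V d := ⟨hv, hw⟩
        rwa [h.W_inf hcd, AddSubgroup.mem_bot] at h3
      subst h2
      rfl
    · rintro ⟨v, hvQ, hv⟩
      obtain ⟨c, hc⟩ := h.exists_W hv
      exact ⟨⟨⟨c, fun g hg => (h.st_of_mem hc hv g).1 (hvQ g hg)⟩, v, hc, hv⟩, rfl⟩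
  have h1 : ∀ d : {c : Ω // ∀ g ∈ Q, g • c = c},
      Nat.card {v : V // v ∈ W P V d.1 ∧ v ≠ 0} = Nat.card (W P V c) - 1 := by
    rintro ⟨d, hd⟩
    rw [h.card_W_eq c d]
    have h2 : Nat.card {v : V // v ∈ W P V d ∧ v ≠ 0} = ((W P V d : Set V) \ {0}).ncard := rfl
    have h3 := Set.ncard_sdiff_add_ncard_of_subset (s := ({0} : Set V)) (t := (W P V d : Set V)) (by
      rw [Set.singleton_subset_iff]; exact zero_mem _)
    rw [Set.ncard_singleton] at h3
    have h4 : ((W P V d : Set V)).ncard = Nat.card (W P V d) := rfl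
    show Nat.card {v : V // v ∈ W P V d ∧ v ≠ 0} = _
    rw [h2]
    omega
  have h2 := Nat.card_congr e
  rw [Nat.card_sigma, Finset.sum_congr rfl (fun d _ => h1 d), Finset.sum_const, Finset.card_univ,
    ← Nat.card_eq_fintype_card, smul_eq_mul] at h2
  have h3 : Nat.card {v : V // v ∈ fixV P V Q ∧ v ≠ 0} = ((fixV P V Q : Set V) \ {0}).ncard := rfl
  have h4 := Set.ncard_sdiff_add_ncard_of_subset (s := ({0} : Set V)) (t := (fixV P V Q : Set V)) (by
    rw [Set.singleton_subset_iff]; exact zero_mem _)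
  rw [Set.ncard_singleton] at h4
  have h5 : (fixV P V Q : Set V).ncard = Nat.card (fixV P V Q) := rfl
  rw [h2, h3]
  omega

/-- if some subgroup `Q` fixes exactly `1 + p ^ e` points then `|W| = p ^ e` -/
theorem card_W_of_fix [Fact p.Prime] [Finite P] [Finite V] [Finite Ω] (c : Ω) {Q : Set P} {e : ℕ} (he : 1 ≤ e)
    (hQ : Nat.card {c : Ω // ∀ g ∈ Q, g • c = c} = 1 + p ^ e) : Nat.card (W P V c) = p ^ e := by
  obtain ⟨b, hb⟩ := exists_card_pow (fixV P V Q) (fun v => Subtype.ext (h.pV v))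
  obtain ⟨a, ha⟩ := exists_card_pow (W P V c) (fun v => Subtype.ext (h.pV v))
  have h1 := h.card_fix c Q
  have h2 := h.one_lt_W c
  rw [hb, ha, hQ] at h1
  rw [ha] at h2
  have ha1 : 1 ≤ a := by
    by_contra hcon
    have : a = 0 := by omega
    rw [this, pow_zero] at h2
    omega
  obtain ⟨h3, h4⟩ := num (Fact.out : p.Prime) ha1 he h1
  rw [ha, h3]

/-- **residues of rank two are impossible** -/
theorem rank_two [Fact p.Prime] [Finite P] [Finite V] [Finite Ω] {Qi Qj Q : Set P} {ei ej k : ℕ} (hi : 1 ≤ ei)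
    (hj : 1 ≤ ej) (hQi : Nat.card {c : Ω // ∀ g ∈ Qi, g • c = c} = 1 + p ^ ei)
    (hQj : Nat.card {c : Ω // ∀ g ∈ Qj, g • c = c} = 1 + p ^ ej)
    (hQ : Nat.card {c : Ω // ∀ g ∈ Q, g • c = c} = 1 + p ^ ei + p ^ ej + p ^ ei * p ^ ej * k) : False := by
  have hp : p.Prime := Fact.out
  obtain ⟨c, -⟩ : Nonempty {c : Ω // ∀ g ∈ Qi, g • c = c} := by
    rw [← Finite.card_pos_iff]; omega
  have h1 := h.card_W_of_fix c hi hQi
  have h2 := h.card_W_of_fix c hj hQj
  have h3 := h.card_fix c Q
  rw [hQ, h1, ← h2, h1] at h3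
  obtain ⟨b, hb⟩ := exists_card_pow (fixV P V Q) (fun v => Subtype.ext (h.pV v))
  rw [hb] at h3
  set w := p ^ ei with hw
  have hw1 : 1 < w := Nat.one_lt_pow (by omega) hp.one_lt
  obtain ⟨x, hx⟩ : ∃ x, w = x + 1 := ⟨w - 1, by omega⟩
  -- `p ^ b = w (w m - 1)` with `m = 2 + w k - k`
  have h4 : p ^ b + w = w * w * (2 + w * k - k) := by
    have h5 : k ≤ w * k := Nat.le_mul_of_pos_left k (by omega)
    rw [h3, hx]
    simp only [Nat.add_sub_cancel]
    have h6 : 2 + (x + 1) * k - k = 2 + x * k := by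
      have : (x + 1) * k = x * k + k := by ring
      omega
    rw [h6]
    ring
  have h5 : w < p ^ b := by
    have h6 : 2 * (w * w) ≤ w * w * (2 + w * k - k) := by
      rw [mul_comm 2]
      apply Nat.mul_le_mul_left
      have h5 : k ≤ w * k := Nat.le_mul_of_pos_left k (by omega)
      omega
    nlinarith
  have h6 : ei < b := (Nat.pow_lt_pow_iff_right hp.one_lt).1 h5
  have h7 : p ^ (ei + 1) ∣ p ^ ei := by
    rw [← hw]
    rw [← Nat.dvd_add_right (pow_dvd_pow p h6), h4]
    apply Dvd.dvd.mul_right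
    rw [hw, ← pow_add]
    exact pow_dvd_pow p (by omega)
  have h8 := Nat.le_of_dvd (pow_pos hp.pos _) h7
  have h9 : p ^ ei < p ^ (ei + 1) := Nat.pow_lt_pow_right hp.one_lt (by omega)
  omega

end PHyp

end Cfsg.Agent.H218.OWN
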